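import Cfsg.Agent.OD.Pre
import Cfsg.Agent.H6.TCTop
import Cfsg.Agent.H6.F23T1.C
set_option autoImplicit false
set_option maxRecDepth 100000
set_option Elab.async false
set_option linter.all false
namespace CfH6.F23T1
open CfH6
theorem p0 : C.OkL 256 2304 := C.okL_of 256 16 0 2304 (by decide) (by decide +kernel)
theorem p1 : C.OkL 2304 4224 := C.okL_of 2304 15 0 4224 (by decide) (by decide +kernel)
theorem p2 : C.OkL 4224 6144 := C.okL_of 4224 15 0 6144 (by decide) (by decide +kernel)
theorem p3 : C.OkL 6144 8064 := C.okL_of 6144 15 0 8064 (by decide) (by decide +kernel)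
theorem p4 : C.OkL 8064 9856 := C.okL_of 8064 14 0 9856 (by decide) (by decide +kernel)
theorem p5 : C.OkL 9856 11648 := C.okL_of 9856 14 0 11648 (by decide) (by decide +kernel)
theorem p6 : C.OkL 11648 13568 := C.okL_of 11648 15 0 13568 (by decide) (by decide +kernel)
theorem p7 : C.OkL 13568 15488 := C.okL_of 13568 15 0 15488 (by decide) (by decide +kernel)
theorem p8 : C.OkL 15488 17536 := C.okL_of 15488 16 0 17536 (by decide) (by decide +kernel)
theorem p9 : C.OkL 17536 19712 := C.okL_of 17536 17 0 19712 (by decide) (by decide +kernel)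
theorem p10 : C.OkL 19712 21888 := C.okL_of 19712 17 0 21888 (by decide) (by decide +kernel)
theorem p11 : C.OkL 21888 23936 := C.okL_of 21888 16 0 23936 (by decide) (by decide +kernel)
theorem p12 : C.OkL 23936 26112 := C.okL_of 23936 17 0 26112 (by decide) (by decide +kernel)
theorem p13 : C.OkL 26112 28288 := C.okL_of 26112 17 0 28288 (by decide) (by decide +kernel)
theorem p14 : C.OkL 28288 30464 := C.okL_of 28288 17 0 30464 (by decide) (by decide +kernel)
theorem p15 : C.OkL 30464 31927 := C.okL_of 30464 11 55 31927 (by decide) (by decide +kernel)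
theorem p16 : C.OkR 31927 34359 := C.okR_of 31927 19 0 34359 (by decide) (by decide +kernel)
theorem p17 : C.OkR 34359 36791 := C.okR_of 34359 19 0 36791 (by decide) (by decide +kernel)
theorem p18 : C.OkR 36791 39095 := C.okR_of 36791 18 0 39095 (by decide) (by decide +kernel)
theorem p19 : C.OkR 39095 41629 := C.okR_of 39095 19 102 41629 (by decide) (by decide +kernel)
end CfH6.F23T1
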